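import Cfsg.Agent.Helper28.SP4.Iso
import Cfsg.Agent.Helper28.HE.Simple
import Cfsg.Agent.Helper28.C1683.Cert

/-!
# The symplectic group `Sp(4, 4)` inside the presented Held group (helper28)

The group `Q` presented on six involutions maps to the Held group: `a, c, d, e, f` to the generators with
these names and `y` to `b c d g d c b`; the relators are checked on a base of the permutation
representation of degree 8330.  The image `NN` lies in the subgroup `SS` generated by
`a, c, d, e, f, (ab)^2, (bcde)^7`; it is normalised by `s0 = (ab)^2`, and `SS = NN ∪ NN s0`.  As `SS` has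
index 2058 in the Held group, `NN` has order `979200`, index 2 in `SS`, and `Q → NN` is an isomorphism.
-/

set_option autoImplicit false

namespace Cfsg.Agent.Helper28.SP4

open Cfsg.Agent.Helper28 Cfsg.Spor

/-- the words of the generators of `Q` in the Held group -/
def heW : Q.Gen → List ℕ
  | .a => [0]
  | .c => [2]
  | .d => [3]
  | .e => [4]
  | .f => [5]
  | .y => [1, 2, 3, 6, 3, 2, 1]

/-- the word of the generator with a given number -/
def heN (k : ℕ) : List ℕ := heW (Cfsg.Agent.Helper28.SP4T.gen k)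

/-- a word in the generators of `Q` as a word in the generators of the Held group -/
noncomputable def sub (l : List ℕ) : List ℕ :=
  List.rec (motive := fun _ => List ℕ) [] (fun k _ ih => heN k ++ ih) l

theorem sub_nil : sub [] = [] := rfl

theorem sub_cons (k : ℕ) (l : List ℕ) : sub (k :: l) = heN k ++ sub l := rfl

/-- the images of the generators of `Q` -/
noncomputable def vH (x : Q.Gen) : He := HE.wv (heW x)

theorem wv_nil : HE.wv [] = 1 := rfl

theorem prod_vH (l : List ℕ) :
    (l.map (fun k => vH (Cfsg.Agent.Helper28.SP4T.gen k))).prod = HE.wv (sub l) := by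
  induction l with
  | nil => rfl
  | cons a l ih =>
    rw [List.map_cons, List.prod_cons, ih, sub_cons, HE.wv_append]
    rfl

/-- a word in the generators of `Q` is trivial in the Held group -/
noncomputable def heChk (l : List ℕ) : Bool :=
  and (letChk Cfsg.Agent.Helper28.HEN.D.jc (sub l))
    (eqBase Cfsg.Agent.Helper28.HEN.T (sub l) []
      [Cfsg.Agent.Helper28.HENL.ov3 0, Cfsg.Agent.Helper28.HENL.ov2 0, 0])

theorem wv_one_of_chk (l : List ℕ) (h : heChk l = true) : HE.wv (sub l) = 1 := by
  unfold heChk at h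
  rw [Bool.and_eq_true] at h
  exact HE.wv_eq (sub l) [] h.1 rfl h.2

theorem relChkH : listAll Cfsg.Agent.Helper28.SP4T.relL heChk = true := by decide +kernel

theorem vH_sq (x : Q.Gen) : vH x * vH x = 1 := by
  unfold vH
  rw [← HE.wv_append]
  cases x <;> exact HE.wv_eq _ [] (by decide +kernel) rfl (by decide +kernel)

/-- the homomorphism to the Held group -/
noncomputable def iota : Q →* He :=
  PresentedGroup.toGroup (Cfsg.Agent.Helper28.SP4T.cert.lift_rel vH vH_sq
    (fun l hl => by
      rw [prod_vH]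
      exact wv_one_of_chk l ((listAll_iff _ _).mp relChkH l hl)))

theorem iota_of (x : Q.Gen) : iota (PresentedGroup.of x) = vH x := PresentedGroup.toGroup.of _

/-- the image of `Q` in the Held group -/
noncomputable abbrev NN : Subgroup He := iota.range

/-- the subgroup generated by `a, c, d, e, f, (ab)^2, (bcde)^7` -/
noncomputable abbrev SS : Subgroup He :=
  (Subgroup.closure ({Cfsg.Spor.He.a, Cfsg.Spor.He.c, Cfsg.Spor.He.d, Cfsg.Spor.He.e, Cfsg.Spor.He.f, (Cfsg.Spor.He.a * Cfsg.Spor.He.b) ^ 2, (Cfsg.Spor.He.b * Cfsg.Spor.He.c * Cfsg.Spor.He.d * Cfsg.Spor.He.e) ^ 7} : Set (FreeGroup Cfsg.Spor.He.Gen))).map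
    (PresentedGroup.mk (Cfsg.Spor.coxRelators Cfsg.Spor.He.edges ∪ {r | r ∈ Cfsg.Spor.He.extra}))

theorem NN_eq : NN = Subgroup.closure (Set.range vH) := toGroup_range _ _ _

theorem vH_mem (x : Q.Gen) : vH x ∈ NN := ⟨_, iota_of x⟩

theorem sub_mem (u : List ℕ) : HE.wv (sub u) ∈ NN := by
  rw [← prod_vH]
  apply Subgroup.list_prod_mem
  intro z hz
  obtain ⟨k, _, rfl⟩ := List.mem_map.mp hz
  exact vH_mem _

theorem wv_sing (k : ℕ) (hk : k < Cfsg.Agent.Helper28.HEN.D.jc) :
    HE.wv [k] = PresentedGroup.of (Cfsg.Agent.Helper28.HEN.gen k) := by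
  show ([k].map HE.gv).prod = _
  rw [List.map_cons, List.map_nil, List.prod_cons, List.prod_nil, mul_one]
  exact coxVal_of k hk

/-- repetition of a word -/
noncomputable def rpt (m : ℕ) (l : List ℕ) : List ℕ :=
  Nat.rec (motive := fun _ => List ℕ) [] (fun _ ih => l ++ ih) m

theorem wv_pow (l : List ℕ) (m : ℕ) : (HE.wv l) ^ m = HE.wv (rpt m l) := by
  induction m with
  | zero => rw [pow_zero]; rfl
  | succ m ih =>
    rw [pow_succ', ih, ← HE.wv_append]
    rfl

/-- the word `(ab)^2` -/
def s0W : List ℕ := [0, 1, 0, 1]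

/-- the element `(ab)^2` -/
noncomputable abbrev s0 : He := HE.wv s0W

theorem s0_sq : s0 * s0 = 1 := by
  rw [← HE.wv_append]
  exact HE.wv_eq _ [] (by decide +kernel) rfl (by decide +kernel)

theorem s0_inv : s0⁻¹ = s0 := inv_eq_of_mul_eq_one_left s0_sq

/-- the conjugates of the generators of `Q` by `(ab)^2`, as words in these generators -/
def cjW : Q.Gen → List ℕ
  | .a => [0]
  | .c => [3, 1, 0]
  | .d => [2]
  | .e => [3]
  | .f => [4]
  | .y => [0, 5, 0]

theorem conj_gen (x : Q.Gen) : s0 * vH x * s0⁻¹ ∈ NN := by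
  have h : s0 * vH x * s0⁻¹ = HE.wv (sub (cjW x)) := by
    unfold vH
    cases x <;>
      exact HE.wv_conj _ _ _ (by decide +kernel) (by decide +kernel) (by decide +kernel) (by decide +kernel)
  rw [h]
  exact sub_mem _

theorem conj_mem (z : He) (hz : z ∈ NN) : s0 * z * s0⁻¹ ∈ NN := by
  rw [NN_eq] at hz
  induction hz using Subgroup.closure_induction with
  | mem y hy =>
    obtain ⟨x, rfl⟩ := hy
    exact conj_gen x
  | one => rw [mul_one, mul_inv_cancel]; exact Subgroup.one_mem _
  | mul y z _ _ ihy ihz =>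
    have e : s0 * (y * z) * s0⁻¹ = (s0 * y * s0⁻¹) * (s0 * z * s0⁻¹) := by group
    rw [e]
    exact Subgroup.mul_mem _ ihy ihz
  | inv y _ ih =>
    have e : s0 * y⁻¹ * s0⁻¹ = (s0 * y * s0⁻¹)⁻¹ := by group
    rw [e]
    exact Subgroup.inv_mem _ ih

theorem conj_mem' (z : He) (hz : z ∈ NN) : s0⁻¹ * z * s0 ∈ NN := by
  have h := conj_mem z hz
  rw [s0_inv] at h ⊢
  exact h

/-- the word `(bcde)^7` in the generators of `Q` -/
def tW : List ℕ := [5, 2, 5, 2, 1, 2, 4, 2, 3, 1, 2, 5, 2, 5]

theorem t_mem : (HE.wv [1, 2, 3, 4]) ^ 7 ∈ NN := by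
  rw [wv_pow]
  have h : HE.wv (rpt 7 [1, 2, 3, 4]) = HE.wv (sub tW) :=
    HE.wv_eq _ _ (by decide +kernel) (by decide +kernel) (by decide +kernel)
  rw [h]
  exact sub_mem _

theorem gen_a : (PresentedGroup.of He.Gen.a : He) = vH Q.Gen.a := (wv_sing 0 (by decide +kernel)).symm
theorem gen_c : (PresentedGroup.of He.Gen.c : He) = vH Q.Gen.c := (wv_sing 2 (by decide +kernel)).symm
theorem gen_d : (PresentedGroup.of He.Gen.d : He) = vH Q.Gen.d := (wv_sing 3 (by decide +kernel)).symm
theorem gen_e : (PresentedGroup.of He.Gen.e : He) = vH Q.Gen.e := (wv_sing 4 (by decide +kernel)).symm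
theorem gen_f : (PresentedGroup.of He.Gen.f : He) = vH Q.Gen.f := (wv_sing 5 (by decide +kernel)).symm

theorem gen_s0 : ((PresentedGroup.of He.Gen.a : He) * PresentedGroup.of He.Gen.b) ^ 2 = s0 := by
  have e : s0 = HE.wv [0] * HE.wv [1] * (HE.wv [0] * HE.wv [1]) := by
    rw [← HE.wv_append, ← HE.wv_append]
    rfl
  rw [e, wv_sing 0 (by decide +kernel), wv_sing 1 (by decide +kernel), pow_two]
  rfl

theorem gen_t : ((PresentedGroup.of He.Gen.b : He) * PresentedGroup.of He.Gen.c * PresentedGroup.of He.Gen.d *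
    PresentedGroup.of He.Gen.e) ^ 7 = (HE.wv [1, 2, 3, 4]) ^ 7 := by
  have e : HE.wv [1, 2, 3, 4] = HE.wv [1] * HE.wv [2] * HE.wv [3] * HE.wv [4] := by
    rw [← HE.wv_append, ← HE.wv_append, ← HE.wv_append]
    rfl
  rw [e, wv_sing 1 (by decide +kernel), wv_sing 2 (by decide +kernel), wv_sing 3 (by decide +kernel),
    wv_sing 4 (by decide +kernel)]
  rfl

/-- every element of `SS` lies in `NN` or in `NN s0` -/
theorem SS_cases (x : He) (hx : x ∈ SS) : x ∈ NN ∨ x * s0 ∈ NN := by
  unfold SS at hx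
  rw [MonoidHom.map_closure] at hx
  induction hx using Subgroup.closure_induction with
  | mem y hy =>
    obtain ⟨s, hs, rfl⟩ := hy
    simp only [Set.mem_insert_iff, Set.mem_singleton_iff] at hs
    rcases hs with rfl | rfl | rfl | rfl | rfl | rfl | rfl
    · left; show (PresentedGroup.of He.Gen.a : He) ∈ NN; rw [gen_a]; exact vH_mem _
    · left; show (PresentedGroup.of He.Gen.c : He) ∈ NN; rw [gen_c]; exact vH_mem _
    · left; show (PresentedGroup.of He.Gen.d : He) ∈ NN; rw [gen_d]; exact vH_mem _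
    · left; show (PresentedGroup.of He.Gen.e : He) ∈ NN; rw [gen_e]; exact vH_mem _
    · left; show (PresentedGroup.of He.Gen.f : He) ∈ NN; rw [gen_f]; exact vH_mem _
    · right
      rw [map_pow, map_mul]
      show ((PresentedGroup.of He.Gen.a : He) * PresentedGroup.of He.Gen.b) ^ 2 * s0 ∈ NN
      rw [gen_s0, s0_sq]
      exact Subgroup.one_mem _
    · left
      rw [map_pow, map_mul, map_mul, map_mul]
      show ((PresentedGroup.of He.Gen.b : He) * PresentedGroup.of He.Gen.c * PresentedGroup.of He.Gen.d *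
        PresentedGroup.of He.Gen.e) ^ 7 ∈ NN
      rw [gen_t]
      exact t_mem
  | one => left; exact Subgroup.one_mem _
  | mul y z _ _ ihy ihz =>
    rcases ihy with hy | hy <;> rcases ihz with hz | hz
    · left; exact Subgroup.mul_mem _ hy hz
    · right; rw [mul_assoc]; exact Subgroup.mul_mem _ hy hz
    · right
      have e : y * z * s0 = (y * s0) * (s0⁻¹ * z * s0) := by group
      rw [e]
      exact Subgroup.mul_mem _ hy (conj_mem' z hz)
    · left
      have e : y * z = (y * s0) * (s0⁻¹ * (z * s0) * s0) * (s0 * s0)⁻¹ := by group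
      rw [e, s0_sq, inv_one, mul_one]
      exact Subgroup.mul_mem _ hy (conj_mem' _ hz)
  | inv y _ ih =>
    rcases ih with hy | hy
    · left; exact Subgroup.inv_mem _ hy
    · right
      have e : y⁻¹ * s0 = s0 * (y * s0)⁻¹ * s0⁻¹ * (s0 * s0) := by group
      rw [e, s0_sq, mul_one]
      exact conj_mem _ (Subgroup.inv_mem _ hy)

theorem y_mem : vH Q.Gen.y ∈ SS := by
  have h := Cfsg.Agent.Helper28.C1683.cert.mem_of_walk [1, 2, 3, 6, 3, 2, 1] (by decide +kernel)
    (by decide +kernel)
  have e : vH Q.Gen.y = ([1, 2, 3, 6, 3, 2, 1].map (coxVal He.edges He.extra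
      Cfsg.Agent.Helper28.C1683.gen Cfsg.Agent.Helper28.C1683.D.jc)).prod := by
    show ([1, 2, 3, 6, 3, 2, 1].map HE.gv).prod = _
    rw [Cfsg.Agent.Helper28.C1683.cert.mapVal _ (by decide +kernel)]
    show ([1, 2, 3, 6, 3, 2, 1].map (coxVal He.edges He.extra
      Cfsg.Agent.Helper28.HEN.gen Cfsg.Agent.Helper28.HEN.D.jc)).prod = _
    rw [Cfsg.Agent.Helper28.HEN.cert.mapVal _ (by decide +kernel)]
    rfl
  rw [e]
  exact h

theorem NN_le : NN ≤ SS := by
  rw [NN_eq]
  apply (Subgroup.closure_le _).mpr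
  rintro _ ⟨x, rfl⟩
  cases x
  · rw [← gen_a]; exact Subgroup.mem_map_of_mem _ (Subgroup.subset_closure (by simp))
  · rw [← gen_c]; exact Subgroup.mem_map_of_mem _ (Subgroup.subset_closure (by simp))
  · rw [← gen_d]; exact Subgroup.mem_map_of_mem _ (Subgroup.subset_closure (by simp))
  · rw [← gen_e]; exact Subgroup.mem_map_of_mem _ (Subgroup.subset_closure (by simp))
  · rw [← gen_f]; exact Subgroup.mem_map_of_mem _ (Subgroup.subset_closure (by simp))
  · exact y_mem

/-- `SS` normalises `NN` -/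
theorem norm_mem (g : He) (hg : g ∈ SS) (z : He) (hz : z ∈ NN) : g * z * g⁻¹ ∈ NN := by
  rcases SS_cases g hg with h | h
  · exact Subgroup.mul_mem _ (Subgroup.mul_mem _ h hz) (Subgroup.inv_mem _ h)
  · have e : g * z * g⁻¹ = (g * s0) * (s0⁻¹ * z * s0) * (g * s0)⁻¹ := by group
    rw [e]
    exact Subgroup.mul_mem _ (Subgroup.mul_mem _ h (conj_mem' z hz)) (Subgroup.inv_mem _ h)

theorem card_SS : Nat.card SS = 1958400 := by
  have h := SS.card_mul_index
  rw [Cfsg.Agent.Helper28.C1683.cert.index_eq, HE.card_eq] at h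
  have e : (4030387200 : ℕ) = 1958400 * 2058 := by norm_num
  rw [e] at h
  exact Nat.eq_of_mul_eq_mul_right (by norm_num) h

theorem card_NN : Nat.card NN = 979200 := by
  have hfin : Finite He := HE.finite
  have hfinQ : Finite Q := finite_Q
  apply le_antisymm
  · have h := Nat.card_le_card_of_surjective iota.rangeRestrict iota.rangeRestrict_surjective
    rw [card_Q] at h
    exact h
  · have hsub : (SS : Set He) ⊆ (NN : Set He) ∪ (fun z => z * s0⁻¹) '' (NN : Set He) := by
      intro x hx
      rcases SS_cases x hx with h | h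
      · exact Or.inl h
      · exact Or.inr ⟨x * s0, h, by group⟩
    have h1 : (SS : Set He).ncard ≤ ((NN : Set He) ∪ (fun z => z * s0⁻¹) '' (NN : Set He)).ncard :=
      Set.ncard_le_ncard hsub (Set.toFinite _)
    have h2 := Set.ncard_union_le (NN : Set He) ((fun z => z * s0⁻¹) '' (NN : Set He))
    rw [Set.ncard_image_of_injective _ (mul_left_injective _)] at h2
    have h3 : (SS : Set He).ncard = 1958400 := by
      rw [← card_SS]; exact (Nat.card_coe_set_eq _).symm
    have h4 : (NN : Set He).ncard = Nat.card NN := (Nat.card_coe_set_eq _).symm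
    omega

theorem iota_bij : Function.Bijective iota.rangeRestrict := by
  have hfinQ : Finite Q := finite_Q
  rw [Nat.bijective_iff_surjective_and_card]
  exact ⟨iota.rangeRestrict_surjective, by rw [card_Q]; exact card_NN.symm⟩

/-- the image of `Q` in the Held group is isomorphic to `Q` -/
noncomputable def isoNN : Q ≃* NN := MulEquiv.ofBijective iota.rangeRestrict iota_bij

end Cfsg.Agent.Helper28.SP4
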