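import Cfsg.Agent.Helper28.SP4.Psi
import Cfsg.Agent.Helper28.SP4.Order
import Cfsg.Agent.Helper28.SP4L.All
import Cfsg.Agent.Helper28.Grp2
import Cfsg.Agent.Helper5.SympCard

/-!
# The presented group `Q` is the symplectic group `Sp(4, 4)` (helper28)

`Q` has order `979200` and acts faithfully on the `255` cosets of `⟨a, c, d, e, f⟩` (coset enumeration
and a stabiliser chain).  The cosets correspond to the `255` nonzero vectors, compatibly with the
matrices of the generators, so the homomorphism to the symplectic group is injective; the symplectic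
group has the same order (`Cfsg.Agent.Helper5.card_sp`).
-/

set_option autoImplicit false

namespace Cfsg.Agent.Helper28.SP4

open Cfsg.Agent.Helper28 Matrix

theorem card_inj : Nat.card Q = 979200 ∧ Function.Injective Cfsg.Agent.Helper28.SP4T.cert.perm := by
  obtain ⟨hfin, hle⟩ := card_le
  have hlb := Cfsg.Agent.Helper28.SP4L.lb_chain
  have e1 : 255 * 64 * 15 * 4 = 979200 := by norm_num
  have e2 : 255 * (192 * (20)) = 979200 := by norm_num
  rw [e1] at hlb
  rw [e2] at hle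
  exact Cfsg.Agent.Helper28.SP4T.cert.card_inj 979200 (by norm_num) _ hfin hle hlb

theorem card_Q : Nat.card Q = 979200 := card_inj.1

theorem finite_Q : Finite Q := card_le.1

/-- the codes of the vectors of the cosets -/
def vcL : List ℕ := [1, 86, 87, 83, 18, 82, 19, 219, 22, 64, 69, 218, 23, 214, 158, 200, 68, 4, 5, 65, 215, 159, 26, 95, 24, 160, 151, 196, 140, 141, 201, 27, 94, 25, 246, 150, 147, 212, 108, 90, 145, 126, 199, 162, 170, 42, 211, 28, 165, 8, 76, 78, 229, 132, 133, 197, 146, 213, 58, 91, 144, 40, 245, 249, 125, 176, 210, 29, 243, 154, 93, 178, 217, 11, 110, 106, 230, 30, 209, 63, 152, 121, 56, 203, 79, 77, 168, 34, 84, 222, 88, 225, 208, 167, 175, 107, 226, 128, 130, 41, 72, 198, 109, 74, 231, 235, 111, 192, 75, 182, 193, 73, 224, 9, 179, 155, 92, 228, 216, 57, 177, 124, 31, 105, 153, 250, 113, 190, 112, 20, 122, 59, 187, 223, 89, 183, 134, 240, 252, 60, 205, 185, 244, 81, 156, 99, 131, 129, 104, 46, 164, 45, 166, 232, 149, 123, 220,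 102, 61, 181, 67, 143, 142, 38, 32, 255, 85, 16, 137, 148, 227, 239, 47, 221, 173, 39, 233, 98, 21, 44, 236, 136, 10, 161, 138, 43, 163, 12, 135, 202, 14, 204, 15, 242, 189, 13, 238, 127, 184, 234, 80, 157, 53, 186, 247, 48, 114, 115, 118, 54, 248, 55, 119, 62, 194, 180, 188, 120, 117, 71, 251, 97, 101, 37, 174, 139, 172, 96, 100, 241, 7, 6, 52, 36, 51, 17, 237, 103, 70, 116, 171, 35, 169, 195, 66, 253, 191, 206, 254, 2, 33, 207, 49, 3, 50]

/-- the cosets of the codes -/
def icL : List ℕ := [0, 0, 249, 253, 17, 18, 231, 230, 49, 113, 182, 73, 187, 195, 190, 192, 167, 235, 4, 6, 129, 178, 8, 12, 24, 33, 22, 31, 47, 67, 77, 122, 164, 250, 87, 241, 233, 223, 163, 175, 61, 99, 45, 185, 179, 151, 149, 172, 205, 252, 254, 234, 232, 202, 209, 211, 82, 119, 58, 131, 139, 158, 213, 79, 9, 19, 244, 160, 16, 10, 238, 219, 100, 111, 103, 108, 50, 85, 51, 84, 200, 143, 5, 3, 88, 166, 1, 2, 90, 134, 39, 59, 116, 70, 32, 23, 227, 221, 177, 145, 228, 222, 157, 237, 148,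 123, 75, 95, 38, 102, 74, 106, 128, 126, 206, 207, 239, 218, 208, 212, 217, 81, 130, 155, 121, 64, 41, 197, 97, 147, 98, 146, 53, 54, 136, 188, 181, 168, 184, 225, 28, 29, 162, 161, 60, 40, 56, 36, 169, 154, 35, 26, 80, 124, 69, 115, 144, 201, 14, 21, 25, 183, 43, 186, 150, 48, 152, 93, 86, 242, 44, 240, 226, 174, 224, 94, 65, 120, 71, 114, 215, 159, 109, 135, 198, 141, 203, 132, 216, 194, 127, 246, 107, 110, 214, 243, 27, 55, 101, 42, 15, 30, 189, 83, 191, 140, 247, 251, 92, 78, 66, 46, 37, 57, 13, 20, 118, 72, 11, 7, 156, 173, 89, 133, 112, 91, 96, 170, 117, 52, 76, 104, 153, 176, 199, 105, 180, 236, 196, 171, 137, 229, 193, 68, 142, 62, 34, 204, 210, 63, 125, 220, 138, 245, 248, 165]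

/-- the code of the vector of a coset -/
noncomputable def vc (i : ℕ) : ℕ := nthN vcL i

/-- the coset of a code -/
noncomputable def ic (c : ℕ) : ℕ := nthN icL c

/-- the check at a coset: the generators act alike on the cosets and on the vectors; the vector
determines the coset -/
noncomputable def eqvPt (i : ℕ) : Bool :=
  and (allBelow 6 (fun k => Nat.beq (stepV k (vc i)) (vc (Cfsg.Agent.Helper28.SP4T.T k i))))
    (and (Nat.beq (ic (vc i)) i) (Nat.beq (codeOf (vecOf (vc i))) (vc i)))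

theorem eqv_all : ∀ i, i < 255 → eqvPt i = true :=
  (allBelow_iff 255 eqvPt).mp (by decide +kernel)

theorem eqv_step (k : ℕ) (hk : k < 6) (i : ℕ) (hi : i < 255) :
    stepV k (vc i) = vc (Cfsg.Agent.Helper28.SP4T.T k i) := by
  have h := eqv_all i hi
  unfold eqvPt at h
  rw [Bool.and_eq_true] at h
  exact Nat.eq_of_beq_eq_true ((allBelow_iff _ _).mp h.1 k hk)

theorem vc_inj (i j : ℕ) (hi : i < 255) (hj : j < 255)
    (h : vecOf (vc i) = vecOf (vc j)) : i = j := by
  have h1 := eqv_all i hi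
  have h2 := eqv_all j hj
  unfold eqvPt at h1 h2
  simp only [Bool.and_eq_true] at h1 h2
  have e1 : vc i = vc j := by
    rw [← Nat.eq_of_beq_eq_true h1.2.2, ← Nat.eq_of_beq_eq_true h2.2.2, h]
  rw [← Nat.eq_of_beq_eq_true h1.2.1, ← Nat.eq_of_beq_eq_true h2.2.1, e1]

theorem perm_of (x : Q.Gen) (p : Fin 255) :
    ((Cfsg.Agent.Helper28.SP4T.cert.perm (PresentedGroup.of x) p : Fin 255) : ℕ) =
      Cfsg.Agent.Helper28.SP4T.T (Cfsg.Agent.Helper28.SP4T.code x) p := by
  have hc := Cfsg.Agent.Helper28.SP4T.cert.hcode x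
  have h := Cfsg.Agent.Helper28.SP4T.cert.perm_val (Cfsg.Agent.Helper28.SP4T.code x) hc.1 p
  rw [coxVal_of _ hc.1, hc.2] at h
  exact h

/-- the matrices of `Q` act on the vectors as `Q` acts on the cosets -/
theorem psi_vec (x : Q) : ∀ p : Fin 255,
    ((psi x : Matrix.symplecticGroup (Fin 2) GF4) : Matrix (Fin 2 ⊕ Fin 2) (Fin 2 ⊕ Fin 2) GF4) *ᵥ
        toV (vecOf (vc p)) = toV (vecOf (vc (Cfsg.Agent.Helper28.SP4T.cert.perm x p))) := by
  have hx : x ∈ Subgroup.closure (Set.range (PresentedGroup.of (rels :=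
      Cfsg.Spor.coxRelators Q.edges ∪ {r | r ∈ Q.extra}))) := by
    rw [PresentedGroup.closure_range_of]; exact Subgroup.mem_top x
  induction hx using Subgroup.closure_induction with
  | mem y hy =>
    obtain ⟨g, rfl⟩ := hy
    intro p
    have hc := Cfsg.Agent.Helper28.SP4T.cert.hcode g
    have hk : Cfsg.Agent.Helper28.SP4T.code g < 6 := hc.1
    rw [psi_of]
    show toM (matOf g) *ᵥ toV (vecOf (vc p)) = _
    rw [toM_mulVec, perm_of, ← eqv_step _ hk p p.2]
    show _ = toV (vecOf (codeOf (mv (matOf (Cfsg.Agent.Helper28.SP4T.gen (Cfsg.Agent.Helper28.SP4T.code g)))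
      (vecOf (vc p)))))
    rw [vecOf_codeOf, hc.2]
  | one =>
    intro p
    rw [map_one, map_one]
    show (1 : Matrix (Fin 2 ⊕ Fin 2) (Fin 2 ⊕ Fin 2) GF4) *ᵥ _ = _
    rw [Matrix.one_mulVec]
    rfl
  | mul y z _ _ ihy ihz =>
    intro p
    rw [map_mul, map_mul, Equiv.Perm.mul_apply]
    show ((psi y : Matrix (Fin 2 ⊕ Fin 2) (Fin 2 ⊕ Fin 2) GF4) *
      (psi z : Matrix (Fin 2 ⊕ Fin 2) (Fin 2 ⊕ Fin 2) GF4)) *ᵥ _ = _
    rw [← Matrix.mulVec_mulVec, ihz p, ihy]
  | inv y _ ih =>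
    intro p
    have h1 := ih ((Cfsg.Agent.Helper28.SP4T.cert.perm y)⁻¹ p)
    rw [← Equiv.Perm.mul_apply, mul_inv_cancel, Equiv.Perm.one_apply] at h1
    rw [map_inv (Cfsg.Agent.Helper28.SP4T.cert.perm), ← h1, Matrix.mulVec_mulVec]
    have h2 : ((psi y⁻¹ : Matrix.symplecticGroup (Fin 2) GF4) : Matrix (Fin 2 ⊕ Fin 2) (Fin 2 ⊕ Fin 2) GF4) *
        (psi y : Matrix (Fin 2 ⊕ Fin 2) (Fin 2 ⊕ Fin 2) GF4) = 1 := by
      have h3 : psi y⁻¹ * psi y = 1 := by rw [← map_mul, inv_mul_cancel, map_one]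
      exact congrArg Subtype.val h3
    rw [h2, Matrix.one_mulVec]

theorem psi_injective : Function.Injective psi := by
  rw [injective_iff_map_eq_one]
  intro x hx
  apply card_inj.2
  rw [map_one]
  apply Equiv.ext
  intro p
  have h := psi_vec x p
  rw [hx] at h
  have h' : (1 : Matrix (Fin 2 ⊕ Fin 2) (Fin 2 ⊕ Fin 2) GF4) *ᵥ toV (vecOf (vc p)) =
      toV (vecOf (vc (Cfsg.Agent.Helper28.SP4T.cert.perm x p))) := h
  rw [Matrix.one_mulVec] at h'
  rw [Equiv.Perm.one_apply]
  apply Fin.ext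
  exact (vc_inj _ _ p.2 (Cfsg.Agent.Helper28.SP4T.cert.perm x p).2 (toV_injective h')).symm

theorem card_sp : Nat.card (Matrix.symplecticGroup (Fin 2) GF4) = 979200 := by
  rw [Cfsg.Agent.Helper5.card_sp, GF4.card_eq]
  norm_num [Finset.prod_range_succ]

theorem psi_bijective : Function.Bijective psi := by
  rw [Nat.bijective_iff_injective_and_card]
  exact ⟨psi_injective, by rw [card_Q, card_sp]⟩

/-- The presented group `Q` is the symplectic group of dimension 4 over the field with 4 elements. -/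
noncomputable def isoSp : Q ≃* Matrix.symplecticGroup (Fin 2) GF4 :=
  MulEquiv.ofBijective psi psi_bijective

end Cfsg.Agent.Helper28.SP4
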