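import Cfsg.Agent.Helper28.SP4.GF4
import Cfsg.Agent.Helper28.TCP

/-!
# A computable model of `4 × 4` matrices over the field with four elements (helper28)

Vectors are quadruples, matrices are quadruples of rows; `toV` and `toM` turn them into Mathlib vectors
and matrices indexed by `Fin 2 ⊕ Fin 2`.  Vectors are also coded by the numbers below `256`, so that a
product of matrices can be followed on a vector by kernel arithmetic.
-/

set_option autoImplicit false

namespace Cfsg.Agent.Helper28.SP4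

open Cfsg.Agent.Helper28 Matrix

/-- vectors -/
abbrev V4 : Type := GF4 × GF4 × GF4 × GF4

/-- matrices, by rows -/
abbrev M4 : Type := V4 × V4 × V4 × V4

/-- the product of a row and a vector -/
def dot (r v : V4) : GF4 := r.1 * v.1 + r.2.1 * v.2.1 + r.2.2.1 * v.2.2.1 + r.2.2.2 * v.2.2.2

/-- the product of a matrix and a vector -/
def mv (m : M4) (v : V4) : V4 := (dot m.1 v, dot m.2.1 v, dot m.2.2.1 v, dot m.2.2.2 v)

/-- the transpose -/
def tr (m : M4) : M4 :=
  ((m.1.1, m.2.1.1, m.2.2.1.1, m.2.2.2.1), (m.1.2.1, m.2.1.2.1, m.2.2.1.2.1, m.2.2.2.2.1),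
    (m.1.2.2.1, m.2.1.2.2.1, m.2.2.1.2.2.1, m.2.2.2.2.2.1),
    (m.1.2.2.2, m.2.1.2.2.2, m.2.2.1.2.2.2, m.2.2.2.2.2.2))

/-- the product of two matrices -/
def mm (a b : M4) : M4 := (mv (tr b) a.1, mv (tr b) a.2.1, mv (tr b) a.2.2.1, mv (tr b) a.2.2.2)

/-- the identity matrix -/
def id4 : M4 := ((1, 0, 0, 0), (0, 1, 0, 0), (0, 0, 1, 0), (0, 0, 0, 1))

/-- the matrix of the symplectic form -/
def j4 : M4 := ((0, 0, 1, 0), (0, 0, 0, 1), (1, 0, 0, 0), (0, 1, 0, 0))

/-- a vector as a function -/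
def toV (v : V4) : Fin 2 ⊕ Fin 2 → GF4 := Sum.elim ![v.1, v.2.1] ![v.2.2.1, v.2.2.2]

/-- a matrix of the model as a matrix -/
def toM (m : M4) : Matrix (Fin 2 ⊕ Fin 2) (Fin 2 ⊕ Fin 2) GF4 :=
  Matrix.of (Sum.elim ![toV m.1, toV m.2.1] ![toV m.2.2.1, toV m.2.2.2])

theorem toV_injective : Function.Injective toV := by
  rintro ⟨a, b, c, d⟩ ⟨a', b', c', d'⟩ h
  have h1 := congrFun h (Sum.inl 0)
  have h2 := congrFun h (Sum.inl 1)
  have h3 := congrFun h (Sum.inr 0)
  have h4 := congrFun h (Sum.inr 1)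
  simp only [toV, Sum.elim_inl, Sum.elim_inr, Matrix.cons_val_zero, Matrix.cons_val_one] at h1 h2 h3 h4
  rw [h1, h2, h3, h4]

theorem toM_mulVec (m : M4) (v : V4) : toM m *ᵥ toV v = toV (mv m v) := by
  funext i
  rcases i with i | i <;> fin_cases i <;>
    simp [toM, toV, mv, dot, Matrix.mulVec, dotProduct, Fintype.sum_sum_type, Fin.sum_univ_two,
      add_assoc]

theorem toM_tr (m : M4) : toM (tr m) = (toM m)ᵀ := by
  ext i j
  rcases i with i | i <;> rcases j with j | j <;> fin_cases i <;> fin_cases j <;>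
    simp [toM, toV, tr, Matrix.transpose_apply]

theorem toM_mul (a b : M4) : toM (mm a b) = toM a * toM b := by
  ext i j
  rcases i with i | i <;> rcases j with j | j <;> fin_cases i <;> fin_cases j <;>
    simp [toM, toV, mm, mv, tr, dot, Matrix.mul_apply, Fintype.sum_sum_type, Fin.sum_univ_two,
      add_assoc] <;> ring

theorem toM_one : toM id4 = 1 := by
  ext i j
  rcases i with i | i <;> rcases j with j | j <;> fin_cases i <;> fin_cases j <;>
    simp [toM, toV, id4, Matrix.one_apply]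

theorem toM_J : toM j4 = Matrix.J (Fin 2) GF4 := by
  ext i j
  rcases i with i | i <;> rcases j with j | j <;> fin_cases i <;> fin_cases j <;>
    simp [toM, toV, j4, Matrix.J, Matrix.one_apply] <;> rfl

end Cfsg.Agent.Helper28.SP4
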