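import Mathlib
import Cfsg.Prelude.Def_SporCoxeter

/-!
# A presentation of the symplectic group Sp(4, 4) on six involutions (helper28; generated)

`Q` is presented on `a, c, d, e, f, y`: in the Held group these are the generators `a, c, d, e, f` and the
element `b c d g d c b`.  `R1` and `R2` are the groups presented on `a, c, d, e, f` and on `a, c, d` by the
relators among them.
-/

set_option autoImplicit false

namespace Cfsg.Agent.Helper28.SP4

namespace Q

/-- the generators -/
inductive Gen
  | a
  | c
  | d
  | e
  | f
  | y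
  deriving DecidableEq

/-- a generator as a word -/
abbrev a : FreeGroup Gen := FreeGroup.of Gen.a
/-- a generator as a word -/
abbrev c : FreeGroup Gen := FreeGroup.of Gen.c
/-- a generator as a word -/
abbrev d : FreeGroup Gen := FreeGroup.of Gen.d
/-- a generator as a word -/
abbrev e : FreeGroup Gen := FreeGroup.of Gen.e
/-- a generator as a word -/
abbrev f : FreeGroup Gen := FreeGroup.of Gen.f
/-- a generator as a word -/
abbrev y : FreeGroup Gen := FreeGroup.of Gen.y

/-- the Coxeter graph -/
def edges : List (Gen × ℕ × Gen) :=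
  [(.c, 10, .d), (.d, 3, .e), (.d, 3, .f), (.a, 2, .c), (.a, 6, .y), (.d, 5, .y), (.e, 3, .y), (.f, 4, .y)]

/-- the further relators -/
def extra : List (FreeGroup Gen) := [a * ((c * d) ^ 5)⁻¹,
  (c * d * f * c * e * d * f) ^ 3,
  (c * d * e) ^ 5,
  (d * f * y) ^ 5,
  (d * f * y * f) ^ 3,
  (d * e * y) ^ 3,
  (a * e * y) ^ 2]

end Q

/-- the group presented on six involutions (it is `Sp(4, 4)`) -/
abbrev Q : Type := Cfsg.Spor.CoxPresented Q.Gen Q.edges Q.extra

namespace R1

/-- the generators -/
inductive Gen
  | a
  | c
  | d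
  | e
  | f
  deriving DecidableEq

/-- a generator as a word -/
abbrev a : FreeGroup Gen := FreeGroup.of Gen.a
/-- a generator as a word -/
abbrev c : FreeGroup Gen := FreeGroup.of Gen.c
/-- a generator as a word -/
abbrev d : FreeGroup Gen := FreeGroup.of Gen.d
/-- a generator as a word -/
abbrev e : FreeGroup Gen := FreeGroup.of Gen.e
/-- a generator as a word -/
abbrev f : FreeGroup Gen := FreeGroup.of Gen.f

/-- the Coxeter graph -/
def edges : List (Gen × ℕ × Gen) :=
  [(.c, 10, .d), (.d, 3, .e), (.d, 3, .f), (.a, 2, .c)]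

/-- the further relators -/
def extra : List (FreeGroup Gen) := [a * ((c * d) ^ 5)⁻¹,
  (c * d * f * c * e * d * f) ^ 3,
  (c * d * e) ^ 5]

/-- the inclusion of the generators -/
def inc : Gen → Q.Gen
  | .a => .a
  | .c => .c
  | .d => .d
  | .e => .e
  | .f => .f

end R1

namespace R2

/-- the generators -/
inductive Gen
  | a
  | c
  | d
  deriving DecidableEq

/-- a generator as a word -/
abbrev a : FreeGroup Gen := FreeGroup.of Gen.a
/-- a generator as a word -/
abbrev c : FreeGroup Gen := FreeGroup.of Gen.c
/-- a generator as a word -/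
abbrev d : FreeGroup Gen := FreeGroup.of Gen.d

/-- the Coxeter graph -/
def edges : List (Gen × ℕ × Gen) :=
  [(.c, 10, .d), (.a, 2, .c)]

/-- the further relators -/
def extra : List (FreeGroup Gen) := [a * ((c * d) ^ 5)⁻¹]

/-- the inclusion of the generators -/
def inc : Gen → Q.Gen
  | .a => .a
  | .c => .c
  | .d => .d

end R2

end Cfsg.Agent.Helper28.SP4
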