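import Cfsg.Agent.Helper28.SP4.Mat
import Cfsg.Agent.Helper28.TCH
import Cfsg.Agent.Helper28.SP4T.Cert

/-!
# The presented group `Q` maps to the symplectic group `Sp(4, 4)` (helper28)

The six generators go to explicit symplectic matrices; the relators are checked by following the four
basis vectors through the relator words.
-/

set_option autoImplicit false

namespace Cfsg.Agent.Helper28.SP4

open Cfsg.Agent.Helper28 Matrix

/-- the digit of a field element -/
def dig : GF4 → ℕ
  | .z => 0
  | .o => 1
  | .w => 2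
  | .v => 3

/-- the field element of a digit -/
def ofDig (d : ℕ) : GF4 :=
  cond (Nat.beq d 0) GF4.z (cond (Nat.beq d 1) GF4.o (cond (Nat.beq d 2) GF4.w GF4.v))

/-- the vector with a given code -/
def vecOf (i : ℕ) : V4 :=
  (ofDig (Nat.land i 3), ofDig (Nat.land (Nat.shiftRight i 2) 3), ofDig (Nat.land (Nat.shiftRight i 4) 3),
    ofDig (Nat.land (Nat.shiftRight i 6) 3))

/-- the code of a vector -/
def codeOf (v : V4) : ℕ :=
  Nat.add (dig v.1) (Nat.add (Nat.mul 4 (dig v.2.1)) (Nat.add (Nat.mul 16 (dig v.2.2.1)) (Nat.mul 64 (dig v.2.2.2))))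

theorem vecOf_codeOf (v : V4) : vecOf (codeOf v) = v := by
  rcases v with ⟨a, b, c, d⟩
  cases a <;> cases b <;> cases c <;> cases d <;> rfl

/-- the matrices of the generators -/
def matOf : Q.Gen → M4
  | .a => ((.o, .z, .o, .z), (.z, .o, .z, .z), (.z, .z, .o, .z), (.z, .z, .z, .o))
  | .c => ((.o, .z, .z, .z), (.z, .v, .z, .w), (.z, .z, .o, .z), (.z, .w, .z, .v))
  | .d => ((.o, .z, .o, .z), (.z, .o, .z, .o), (.z, .z, .o, .z), (.z, .z, .z, .o))
  | .e => ((.o, .z, .o, .z), (.z, .z, .z, .o), (.z, .z, .o, .z), (.z, .o, .z, .z))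
  | .f => ((.o, .o, .z, .o), (.z, .z, .o, .o), (.z, .z, .o, .z), (.z, .o, .o, .z))
  | .y => ((.w, .v, .w, .v), (.o, .o, .v, .z), (.o, .o, .w, .o), (.o, .z, .v, .o))

/-- the matrix of the generator with a given number -/
def gm (k : ℕ) : M4 := matOf (Cfsg.Agent.Helper28.SP4T.gen k)

/-- the action of a generator on the codes of the vectors -/
noncomputable def stepV (k i : ℕ) : ℕ := codeOf (mv (gm k) (vecOf i))

theorem prod_mulVec (l : List ℕ) (i : ℕ) :
    (l.map (fun k => toM (gm k))).prod *ᵥ toV (vecOf i) = toV (vecOf (walkA stepV l i)) := by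
  induction l with
  | nil => rw [List.map_nil, List.prod_nil, Matrix.one_mulVec, walkA_nil]
  | cons a l ih =>
    rw [List.map_cons, List.prod_cons, ← Matrix.mulVec_mulVec, ih, toM_mulVec, walkA_cons]
    show toV (mv (gm a) (vecOf (walkA stepV l i))) = toV (vecOf (codeOf (mv (gm a) (vecOf (walkA stepV l i)))))
    rw [vecOf_codeOf]

theorem toV_1 : toV (vecOf 1) = Pi.single (Sum.inl 0) 1 := by
  funext i
  rcases i with i | i <;> fin_cases i <;> decide

theorem toV_4 : toV (vecOf 4) = Pi.single (Sum.inl 1) 1 := by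
  funext i
  rcases i with i | i <;> fin_cases i <;> decide

theorem toV_16 : toV (vecOf 16) = Pi.single (Sum.inr 0) 1 := by
  funext i
  rcases i with i | i <;> fin_cases i <;> decide

theorem toV_64 : toV (vecOf 64) = Pi.single (Sum.inr 1) 1 := by
  funext i
  rcases i with i | i <;> fin_cases i <;> decide

/-- A matrix fixing the four basis vectors is the identity. -/
theorem eq_one_of_basis (M : Matrix (Fin 2 ⊕ Fin 2) (Fin 2 ⊕ Fin 2) GF4)
    (h : ∀ b ∈ [1, 4, 16, 64], M *ᵥ toV (vecOf b) = toV (vecOf b)) : M = 1 := by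
  have h1 := h 1 (by simp)
  have h4 := h 4 (by simp)
  have h16 := h 16 (by simp)
  have h64 := h 64 (by simp)
  rw [toV_1, Matrix.mulVec_single_one] at h1
  rw [toV_4, Matrix.mulVec_single_one] at h4
  rw [toV_16, Matrix.mulVec_single_one] at h16
  rw [toV_64, Matrix.mulVec_single_one] at h64
  ext i j
  rw [Matrix.one_apply]
  rcases j with j | j <;> fin_cases j
  · have := congrFun h1 i
    rw [Matrix.col_apply, Pi.single_apply] at this
    exact this
  · have := congrFun h4 i
    rw [Matrix.col_apply, Pi.single_apply] at this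
    exact this
  · have := congrFun h16 i
    rw [Matrix.col_apply, Pi.single_apply] at this
    exact this
  · have := congrFun h64 i
    rw [Matrix.col_apply, Pi.single_apply] at this
    exact this

/-- a word fixes the codes of the four basis vectors -/
noncomputable def basisChk (l : List ℕ) : Bool :=
  listAll [1, 4, 16, 64] (fun b => Nat.beq (walkA stepV l b) b)

theorem prod_eq_one (l : List ℕ) (h : basisChk l = true) : (l.map (fun k => toM (gm k))).prod = 1 := by
  apply eq_one_of_basis
  intro b hb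
  rw [prod_mulVec, Nat.eq_of_beq_eq_true ((listAll_iff _ _).mp h b hb)]

theorem matOf_mem (x : Q.Gen) : toM (matOf x) ∈ Matrix.symplecticGroup (Fin 2) GF4 := by
  rw [SymplecticGroup.mem_iff, ← toM_J, ← toM_tr, ← toM_mul, ← toM_mul]
  congr 1
  cases x <;> decide

/-- the symplectic matrices of the generators -/
def gS (x : Q.Gen) : Matrix.symplecticGroup (Fin 2) GF4 := ⟨toM (matOf x), matOf_mem x⟩

theorem gS_val_prod (l : List ℕ) :
    (((l.map (fun k => gS (Cfsg.Agent.Helper28.SP4T.gen k))).prod :
      Matrix.symplecticGroup (Fin 2) GF4) : Matrix (Fin 2 ⊕ Fin 2) (Fin 2 ⊕ Fin 2) GF4) =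
      (l.map (fun k => toM (gm k))).prod := by
  induction l with
  | nil => rfl
  | cons a l ih =>
    rw [List.map_cons, List.prod_cons, List.map_cons, List.prod_cons, ← ih]
    rfl

theorem gS_prod_eq_one (l : List ℕ) (h : basisChk l = true) :
    (l.map (fun k => gS (Cfsg.Agent.Helper28.SP4T.gen k))).prod = 1 := by
  apply Subtype.ext
  rw [gS_val_prod, prod_eq_one l h]
  rfl

theorem gS_sq (x : Q.Gen) : gS x * gS x = 1 := by
  apply Subtype.ext
  show toM (matOf x) * toM (matOf x) = 1
  rw [← toM_mul, ← toM_one]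
  congr 1
  cases x <;> decide

theorem relChk : listAll Cfsg.Agent.Helper28.SP4T.relL basisChk = true := by decide +kernel

/-- the homomorphism to the symplectic group -/
noncomputable def psi : Q →* Matrix.symplecticGroup (Fin 2) GF4 :=
  PresentedGroup.toGroup (Cfsg.Agent.Helper28.SP4T.cert.lift_rel gS gS_sq
    (fun l hl => gS_prod_eq_one l ((listAll_iff _ _).mp relChk l hl)))

theorem psi_of (x : Q.Gen) : psi (PresentedGroup.of x) = gS x := PresentedGroup.toGroup.of _

end Cfsg.Agent.Helper28.SP4
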